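import Cfsg.Agent.Lib.AutPSU.GraphCent

/-!
# Involutory graph automorphisms of `PSU_n(q)`: splitting of the `Inndiag`-class under `Inn`
-/

set_option autoImplicit false
set_option linter.unusedSectionVars false
set_option linter.unusedSimpArgs false
set_option linter.unusedVariables false
set_option linter.style.haveILetI false

namespace Cfsg.Agent.Lib.AutPSU.GB

open Module Matrix Cfsg
open Cfsg.Agent.Lib.Hilbert90
open Cfsg.Agent.Lib.AutPSL (glMap glMap_coe nrm nrm_succ nrm_succ' glMap_scalar scalar_coe invT invT_coe invT_inv_coe gr dl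
  orderOf_gr_iff exists_of_graphClass isGraphClass_gr sign_of_sym isConj_gr_iff rG rG_coe graph_cent_equiv gl_mi gl_im
  jG det_rG det_of_sim_J skew_alt exists_congr_alt exists_congr_sym gl_det_ne rG_inv_skew jG_transpose sim_inv_iff)
open Cfsg.Agent.Lib.UnitarySU (detGU detGU_val detGU_range_card)
open scoped MatrixGroups

variable {F : Type*} [Field F] [Fintype F] {q n : ℕ}
variable {F₀ : Type*} [Field F₀] [Fintype F₀]
variable {hF : Fintype.card F = q ^ 2} {ι : F₀ →+* F}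

local notation "sc" => Matrix.GeneralLinearGroup.scalar (Fin n)

section WithP

variable {p : ℕ} [hp : Fact p.Prime] [hch : CharP F p]
include hp hch

/-- The generic count of classes. -/
theorem count_of_T_U (hF : Fintype.card F = q ^ 2) (hn : 3 ≤ n) (x₀ : MulAut (PSU n F q)) (T : Subgroup (detGU n F q).range)
    (h1 : ∀ t ∈ T, ∃ u : GU n F q, Commute (inHomU n F q u) x₀ ∧ (detGU n F q).rangeRestrict u = t)
    (h2 : ∀ u : GU n F q, Commute (inHomU n F q u) x₀ → ∃ a : (detGU n F q).range, ∃ t ∈ T, (detGU n F q).rangeRestrict u = a ^ n * t) :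
    splitClassCount (inndiagPSU n F q) (Inn (PSU n F q)) x₀ = Nat.gcd ((q + 1) / Nat.card T) n := by
  classical
  have hn1 : 1 ≤ n := by omega
  let dd : GU n F q →* (detGU n F q).range := (detGU n F q).rangeRestrict
  have hdd : Function.Surjective dd := MonoidHom.rangeRestrict_surjective _
  set S : Subgroup (detGU n F q).range := (powMonoidHom n : (detGU n F q).range →* (detGU n F q).range).range ⊔ T with hS
  let D : GU n F q →* (detGU n F q).range ⧸ S := (QuotientGroup.mk' S).comp dd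
  have hD : Function.Surjective D := (QuotientGroup.mk'_surjective S).comp hdd
  have hK : Inn (PSU n F q) ≤ (inHomU n F q).range := by
    rintro _ ⟨x, rfl⟩
    obtain ⟨s, rfl⟩ := piT_surj x
    exact ⟨⟨suGL s, suGL_mem s⟩, semiAut_suGL s⟩
  have hnorm : ∀ k ∈ Inn (PSU n F q), ∀ g, inHomU n F q g * k * (inHomU n F q g)⁻¹ ∈ Inn (PSU n F q) := by
    rintro _ ⟨a, rfl⟩ g
    refine ⟨inHomU n F q g a, ?_⟩
    ext x
    simp [MulAut.conj_apply, MulAut.inv_def, MulAut.mul_apply]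
  have hker : ∀ g, D g = 1 ↔ ∃ k u, inHomU n F q k ∈ Inn (PSU n F q) ∧ Commute (inHomU n F q u) x₀ ∧ g = k * u := by
    intro g
    have h3 : D g = 1 ↔ dd g ∈ S := by
      change (QuotientGroup.mk (dd g) : (detGU n F q).range ⧸ S) = 1 ↔ _
      exact QuotientGroup.eq_one_iff _
    rw [h3, hS, Subgroup.mem_sup]
    constructor
    · rintro ⟨_, ⟨a, rfl⟩, t, ht, he⟩
      have ha1 : ((a : Fˣ) : F) * ((a : Fˣ) : F) ^ q = 1 := (mem_detGU_range hF hn1 _).1 a.2
      obtain ⟨u, hu, hdu⟩ := h1 t ht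
      refine ⟨g * u⁻¹, u, ?_, hu, by group⟩
      apply inHomU_mem_Inn_of_det ha1
      have h5 : dd (g * u⁻¹) = a ^ n := by
        have hdu' : dd u = t := hdu
        rw [map_mul, map_inv, hdu', ← he]
        simp
      exact congrArg Subtype.val h5
    · rintro ⟨k, u, hk, hu, rfl⟩
      obtain ⟨a, ha1, hak⟩ := det_of_inHomU_mem_Inn (p := p) hF hn hk
      obtain ⟨b, t, ht, hb⟩ := h2 u hu
      let a' : (detGU n F q).range := ⟨a, (mem_detGU_range hF hn1 _).2 ha1⟩
      have hk' : dd k = a' ^ n := Subtype.ext hak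
      have hb' : dd u = b ^ n * t := hb
      refine ⟨(a' * b) ^ n, ⟨a' * b, rfl⟩, t, ht, ?_⟩
      rw [map_mul, hk', hb', mul_pow, mul_assoc]
  have h4 := Cfsg.Agent.Lib.AutPSL.split_count (inHomU n F q) (Inn (PSU n F q)) x₀ hK hnorm D hD hker
  rw [← inndiag_eq_range] at h4
  rw [h4, hS, Cfsg.Agent.Lib.AutPSL.card_quot_pow_sup, detGU_range_card hF hn1]

end WithP

/-! ### Elements commuting with `semiAut g τ` -/

theorem det_sc_cmp (x : Fˣ) (P : GL (Fin n) F) (w : GL (Fin n) F₀) :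
    ((sc x * cmp ι P P w : GL (Fin n) F) : Matrix (Fin n) (Fin n) F).det = (x : F) ^ n * ι (w : Matrix (Fin n) (Fin n) F₀).det := by
  rw [smulGL_val, Matrix.det_smul, Fintype.card_fin, cmp_coe, Matrix.det_mul, Matrix.det_mul]
  have h1 : ((w : Matrix (Fin n) (Fin n) F₀).map ι).det = ι (w : Matrix (Fin n) (Fin n) F₀).det := (RingHom.map_det ι _).symm
  have h2 : (P : Matrix (Fin n) (Fin n) F).det * ((P⁻¹ : GL (Fin n) F) : Matrix (Fin n) (Fin n) F).det = 1 := by
    rw [← Matrix.det_mul, gl_mi P, Matrix.det_one]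
  rw [h1]
  congr 1
  calc _ = ι (w : Matrix (Fin n) (Fin n) F₀).det * ((P : Matrix (Fin n) (Fin n) F).det * ((P⁻¹ : GL (Fin n) F) : Matrix (Fin n) (Fin n) F).det) := by ring
    _ = _ := by rw [h2, mul_one]

theorem sc_cmp_mem_iff (hn : 1 ≤ n) (hι : Emb hF ι) {P : GL (Fin n) F} {B w : GL (Fin n) F₀} {l : Fˣ} {c : F₀} (x : Fˣ)
    (hP : cj hF (P : Matrix (Fin n) (Fin n) F) * (P : Matrix (Fin n) (Fin n) F) = (l : F) • (B : Matrix (Fin n) (Fin n) F₀).map ι)
    (h : (w : Matrix (Fin n) (Fin n) F₀)ᵀ * B * w = c • (B : Matrix (Fin n) (Fin n) F₀)) :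
    sc x * cmp ι P P w ∈ GU n F q ↔ (x : F) * tauE hF (x : F) * ι c = 1 := by
  rw [mem_GU_iff hF, smulGL_val, cj_smul, Matrix.smul_mul, Matrix.mul_smul, cj_cmp hι l.ne_zero hP hP h, smul_smul, smul_smul]
  have h1 : tauE hF (x : F) * (x : F) * ((l : F) * ι c * (l : F)⁻¹) = (x : F) * tauE hF (x : F) * ι c := by
    have := l.ne_zero
    field_simp
  rw [h1]
  constructor
  · intro h2
    have h3 := congrFun (congrFun h2 ⟨0, hn⟩) ⟨0, hn⟩
    simpa using h3
  · intro h2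
    rw [h2, one_smul]

section WithP

variable {p : ℕ} [hp : Fact p.Prime] [hch : CharP F p]
include hp hch

theorem commute_of_cmp (hF : Fintype.card F = q ^ 2) (hn : 3 ≤ n) (hι : Emb hF ι) {g : GL (Fin n) F} (hg : g ∈ GU n F q)
    {P : GL (Fin n) F} {ν : Fˣ} (hPg : sc ν * g = P * glMap (tauE hF) P⁻¹) {x : Fˣ} {w : GL (Fin n) F₀}
    (hx : sc x * cmp ι P P w ∈ GU n F q) :
    Commute (inHomU n F q ⟨_, hx⟩) (semiAut hg (tauE hF)) := by
  have h1 := (conj_eq_iff (p := p) hF hn hx hg hg).2 ⟨(x * ν⁻¹ * (tu hF x)⁻¹ * ν)⁻¹, by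
    rw [conj_cmp hι w hPg hPg, sc_inv, inv_mul_cancel_left]⟩
  change _ * _ = _ * _
  calc _ = (inHomU n F q ⟨_, hx⟩ * semiAut hg (tauE hF) * (inHomU n F q ⟨_, hx⟩)⁻¹) * inHomU n F q ⟨_, hx⟩ := by group
    _ = _ := by rw [h1]

/-- Unitary elements commuting with `semiAut g τ` from similarities of the form. -/
theorem data_of_form (hF : Fintype.card F = q ^ 2) (hn : 3 ≤ n) (hι : Emb hF ι) {g : GL (Fin n) F} (hg : g ∈ GU n F q)
    {B : GL (Fin n) F₀} (hr : IsRep hF ι g B) {w : GL (Fin n) F₀} {c : F₀}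
    (h : (w : Matrix (Fin n) (Fin n) F₀)ᵀ * B * w = c • (B : Matrix (Fin n) (Fin n) F₀)) (x : Fˣ)
    (hx : (x : F) * tauE hF (x : F) * ι c = 1) :
    ∃ u : GU n F q, Commute (inHomU n F q u) (semiAut hg (tauE hF)) ∧
      (u.1 : Matrix (Fin n) (Fin n) F).det = (x : F) ^ n * ι (w : Matrix (Fin n) (Fin n) F₀).det := by
  obtain ⟨P, ν, l, hPg, hP⟩ := hr
  have hm := (sc_cmp_mem_iff (by omega) hι x hP h).2 hx
  exact ⟨⟨_, hm⟩, commute_of_cmp (p := p) hF hn hι hg hPg hm, det_sc_cmp x P w⟩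

/-- Similarities of the form from unitary elements commuting with `semiAut g τ`. -/
theorem form_of_data (hF : Fintype.card F = q ^ 2) (hn : 3 ≤ n) (hι : Emb hF ι) {g : GL (Fin n) F} (hg : g ∈ GU n F q)
    {B : GL (Fin n) F₀} (hr : IsRep hF ι g B) (u : GU n F q)
    (h : Commute (inHomU n F q u) (semiAut hg (tauE hF))) :
    ∃ (w : GL (Fin n) F₀) (c : F₀ˣ) (x : Fˣ), (w : Matrix (Fin n) (Fin n) F₀)ᵀ * B * w = (c : F₀) • (B : Matrix (Fin n) (Fin n) F₀) ∧
      (x : F) * tauE hF (x : F) * ι (c : F₀) = 1 ∧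
      (u.1 : Matrix (Fin n) (Fin n) F).det = (x : F) ^ n * ι (w : Matrix (Fin n) (Fin n) F₀).det := by
  have hn1 : 1 ≤ n := by omega
  obtain ⟨P, ν, l, hPg, hP⟩ := hr
  have h1 : inHomU n F q ⟨u.1, u.2⟩ * semiAut hg (tauE hF) * (inHomU n F q ⟨u.1, u.2⟩)⁻¹ = semiAut hg (tauE hF) := by
    have h2 : inHomU n F q u * semiAut hg (tauE hF) = semiAut hg (tauE hF) * inHomU n F q u := h
    change inHomU n F q u * semiAut hg (tauE hF) * (inHomU n F q u)⁻¹ = _
    rw [h2]
    group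
  obtain ⟨μ, hμ⟩ := (conj_eq_iff (p := p) hF hn u.2 hg hg).1 h1
  obtain ⟨w, x, hw⟩ := exists_cmp_of_conj hn1 hι hPg hPg hμ
  have hx : sc x * cmp ι P P w ∈ GU n F q := by
    rw [← hw]
    exact u.2
  obtain ⟨c, hc⟩ := sim_of_unitary hn1 hι hP hP hx
  refine ⟨w, c, x, hc, (sc_cmp_mem_iff hn1 hι x hP hc).1 hx, ?_⟩
  rw [hw, det_sc_cmp]

end WithP

/-! ### Algebra -/

theorem det_sq_of_sim {B w : GL (Fin n) F₀} {c : F₀}
    (h : (w : Matrix (Fin n) (Fin n) F₀)ᵀ * B * w = c • (B : Matrix (Fin n) (Fin n) F₀)) :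
    (w : Matrix (Fin n) (Fin n) F₀).det ^ 2 = c ^ n := by
  have h1 := congrArg Matrix.det h
  rw [Matrix.det_mul, Matrix.det_mul, Matrix.det_transpose, Matrix.det_smul, Fintype.card_fin] at h1
  have hB := gl_det_ne B
  apply mul_right_cancel₀ hB
  linear_combination h1

theorem exists_hilbert (hF : Fintype.card F = q ^ 2) {a : F} (ha : a * tauE hF a = 1) : ∃ d : F, d ≠ 0 ∧ a * tauE hF d = d := by
  apply exists_of_pnorm_eq_one (tauE hF) (r := 2) (by omega) (orderOf_tauE hF)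
  simpa [pnorm, Finset.prod_range_succ] using ha

theorem exists_multiplier (hι : Emb hF ι) {d : F} (hd : d ≠ 0) : ∃ c : F₀ˣ, d * tauE hF d * ι (c : F₀) = 1 := by
  have hτd : tauE hF d ≠ 0 := (map_ne_zero _).2 hd
  have h1 : tauE hF (d * tauE hF d)⁻¹ = (d * tauE hF d)⁻¹ := by
    rw [map_inv₀, map_mul, tauE_tauE, mul_comm]
  obtain ⟨c, hc⟩ := hι.surj _ h1
  have hc0 : c ≠ 0 := by
    rintro rfl
    rw [map_zero] at hc
    exact inv_ne_zero (mul_ne_zero hd hτd) hc.symm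
  refine ⟨Units.mk0 c hc0, ?_⟩
  rw [Units.val_mk0, hc, mul_inv_cancel₀ (mul_ne_zero hd hτd)]

theorem key_alg {a d e t : F} (hd : a * t = d) (hx : d * t * e = 1) : d * d * e = a := by
  linear_combination a * hx - (d * e) * hd

theorem norm_key (hι : Emb hF ι) {x : F} {c : F₀} (hx : x * tauE hF x * ι c = 1) :
    (x * x * ι c) * (x * x * ι c) ^ q = 1 := by
  rw [← tauE_apply hF, map_mul, map_mul, hι.fix, tauE_apply hF]
  have h : x * x * ι c * (x ^ q * x ^ q * ι c) = (x * tauE hF x * ι c) * (x * tauE hF x * ι c) := by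
    rw [tauE_apply]
    ring
  rw [h, hx, one_mul]

/-! ### Elements of the group of determinants -/

/-- An element of the group of norm-one scalars. -/
noncomputable def mkU (hF : Fintype.card F = q ^ 2) (hn : 1 ≤ n) (y : F) (hy : y * y ^ q = 1) : (detGU n F q).range :=
  ⟨Units.mk0 y (left_ne_zero_of_mul_eq_one hy), (mem_detGU_range hF hn _).2 hy⟩

theorem mkU_val (hn : 1 ≤ n) (y : F) (hy : y * y ^ q = 1) : (((mkU hF hn y hy : (detGU n F q).range) : Fˣ) : F) = y := rfl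

theorem U_pow_val (a : (detGU n F q).range) (k : ℕ) : (((a ^ k : (detGU n F q).range) : Fˣ) : F) = ((a : Fˣ) : F) ^ k := by
  rw [SubgroupClass.coe_pow, Units.val_pow_eq_pow_val]

theorem dd_eq (u : GU n F q) (t : (detGU n F q).range) (h : (u.1 : Matrix (Fin n) (Fin n) F).det = ((t : Fˣ) : F)) :
    (detGU n F q).rangeRestrict u = t :=
  Subtype.ext (Units.ext h)

/-! ### The case of odd dimension or even characteristic -/

section WithP

variable {p : ℕ} [hp : Fact p.Prime] [hch : CharP F p]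
include hp hch

theorem countU_trivial (hF : Fintype.card F = q ^ 2) (hn : 3 ≤ n) (hι : Emb hF ι) {g : GL (Fin n) F} (hg : g ∈ GU n F q)
    {B : GL (Fin n) F₀} (hr : IsRep hF ι g B) (h : Odd n ∨ (2 : F₀) = 0) :
    splitClassCount (inndiagPSU n F q) (Inn (PSU n F q)) (semiAut hg (tauE hF)) = Nat.gcd n (q + 1) := by
  have hn1 : 1 ≤ n := by omega
  rw [count_of_T_U (p := p) hF hn _ ⊥]
  · rw [Subgroup.card_bot, Nat.div_one, Nat.gcd_comm]
  · intro t ht
    rw [Subgroup.mem_bot] at ht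
    subst ht
    exact ⟨1, by rw [map_one]; exact Commute.one_left _, map_one _⟩
  · intro u hu
    obtain ⟨w, c, x, hwc, hx, hdet⟩ := form_of_data (p := p) hF hn hι hg hr u hu
    have hd2 := det_sq_of_sim hwc
    have hc0 : (c : F₀) ≠ 0 := c.ne_zero
    have hW0 : (w : Matrix (Fin n) (Fin n) F₀).det ≠ 0 := gl_det_ne w
    -- `c` is a square
    obtain ⟨e, he⟩ : ∃ e : F₀ˣ, (c : F₀) = e * e := by
      rcases h with hodd | h2
      · obtain ⟨k, hk⟩ := hodd
        set D := (w : Matrix (Fin n) (Fin n) F₀).det with hD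
        have hd0 : D / (c : F₀) ^ k ≠ 0 := div_ne_zero hW0 (pow_ne_zero _ hc0)
        refine ⟨Units.mk0 _ hd0, ?_⟩
        rw [Units.val_mk0, div_mul_div_comm, ← pow_two, hd2, hk]
        field_simp
        ring
      · haveI : CharP F₀ 2 := CharTwo.of_one_ne_zero_of_two_eq_zero one_ne_zero h2
        exact Cfsg.Agent.Lib.AutPSL.exists_sqrt_unit c
    have he0 : (e : F₀) ≠ 0 := e.ne_zero
    set D₁ : F₀ := (w : Matrix (Fin n) (Fin n) F₀).det / (e : F₀) ^ n with hD₁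
    have hD₁s : D₁ * D₁ = 1 := by
      have h3 : ((e : F₀) ^ n) * ((e : F₀) ^ n) = (c : F₀) ^ n := by
        rw [he, mul_pow]
      rw [hD₁, div_mul_div_comm, ← pow_two, hd2, h3]
      exact div_self (pow_ne_zero _ hc0)
    have hW : (w : Matrix (Fin n) (Fin n) F₀).det = D₁ * (e : F₀) ^ n := by
      rw [hD₁]
      field_simp
    set a₀ : F := (x : F) * ι (e : F₀) with ha₀
    have ha₀n : a₀ * a₀ ^ q = 1 := by
      rw [← tauE_apply hF, ha₀, map_mul, hι.fix]
      calc (x : F) * ι (e : F₀) * (tauE hF (x : F) * ι (e : F₀)) = (x : F) * tauE hF (x : F) * (ι (e : F₀) * ι (e : F₀)) := by ring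
        _ = (x : F) * tauE hF (x : F) * ι (c : F₀) := by rw [he, map_mul]
        _ = 1 := hx
    have hdet2 : (u.1 : Matrix (Fin n) (Fin n) F).det = ι D₁ * a₀ ^ n := by
      rw [hdet, hW, map_mul, map_pow, ha₀, mul_pow]
      ring
    rcases mul_self_eq_one_iff.1 hD₁s with h1 | h1
    · refine ⟨mkU hF hn1 a₀ ha₀n, 1, one_mem _, ?_⟩
      rw [mul_one]
      apply dd_eq
      rw [U_pow_val, mkU_val, hdet2, h1, map_one, one_mul]
    · rcases h with hodd | h2
      · have hneg : (-a₀) * (-a₀) ^ q = 1 := by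
          rw [← tauE_apply hF, map_neg, tauE_apply hF, neg_mul_neg]
          exact ha₀n
        refine ⟨mkU hF hn1 (-a₀) hneg, 1, one_mem _, ?_⟩
        rw [mul_one]
        apply dd_eq
        rw [U_pow_val, mkU_val, hdet2, h1, map_neg, map_one, hodd.neg_pow]
        ring
      · refine ⟨mkU hF hn1 a₀ ha₀n, 1, one_mem _, ?_⟩
        rw [mul_one]
        apply dd_eq
        have h3 : D₁ = 1 := by
          rw [h1]
          linear_combination (-1 : F₀) * h2
        rw [U_pow_val, mkU_val, hdet2, h3, map_one, one_mul]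

end WithP

/-! ### Matrix lemmas for the even-dimensional case -/

section Forms

variable {K : Type*} [Field K]

theorem inv_skew {B : GL (Fin n) K} (hB : (B : Matrix (Fin n) (Fin n) K)ᵀ = -(B : Matrix (Fin n) (Fin n) K)) :
    ((B⁻¹ : GL (Fin n) K) : Matrix (Fin n) (Fin n) K)ᵀ = -((B⁻¹ : GL (Fin n) K) : Matrix (Fin n) (Fin n) K) := by
  set X := ((B⁻¹ : GL (Fin n) K) : Matrix (Fin n) (Fin n) K) with hX
  have h1 : Xᵀ * (B : Matrix (Fin n) (Fin n) K)ᵀ = 1 := by
    rw [← Matrix.transpose_mul, gl_mi B, Matrix.transpose_one]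
  rw [hB, Matrix.mul_neg] at h1
  calc Xᵀ = Xᵀ * ((B : Matrix (Fin n) (Fin n) K) * X) := by rw [gl_mi B, Matrix.mul_one]
    _ = (Xᵀ * (B : Matrix (Fin n) (Fin n) K)) * X := by rw [Matrix.mul_assoc]
    _ = -((-(Xᵀ * (B : Matrix (Fin n) (Fin n) K))) * X) := by rw [Matrix.neg_mul, neg_neg]
    _ = -X := by rw [h1, Matrix.one_mul]

theorem inv_symm {B : GL (Fin n) K} (hB : (B : Matrix (Fin n) (Fin n) K)ᵀ = (B : Matrix (Fin n) (Fin n) K)) :
    ((B⁻¹ : GL (Fin n) K) : Matrix (Fin n) (Fin n) K)ᵀ = ((B⁻¹ : GL (Fin n) K) : Matrix (Fin n) (Fin n) K) := by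
  set X := ((B⁻¹ : GL (Fin n) K) : Matrix (Fin n) (Fin n) K) with hX
  have h1 : Xᵀ * (B : Matrix (Fin n) (Fin n) K)ᵀ = 1 := by
    rw [← Matrix.transpose_mul, gl_mi B, Matrix.transpose_one]
  rw [hB] at h1
  calc Xᵀ = Xᵀ * ((B : Matrix (Fin n) (Fin n) K) * X) := by rw [gl_mi B, Matrix.mul_one]
    _ = (Xᵀ * (B : Matrix (Fin n) (Fin n) K)) * X := by rw [Matrix.mul_assoc]
    _ = X := by rw [h1, Matrix.one_mul]

/-- Similarity transported along a reindexing. -/
theorem sim_rG_iff {ι' : Type} [Fintype ι'] [DecidableEq ι'] (e : ι' ≃ Fin n) (u A : GL ι' K) (c : K) :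
    ((rG e u : GL (Fin n) K) : Matrix (Fin n) (Fin n) K) * ((rG e A⁻¹ : GL (Fin n) K) : Matrix (Fin n) (Fin n) K) *
        ((rG e u : GL (Fin n) K) : Matrix (Fin n) (Fin n) K)ᵀ = c • ((rG e A⁻¹ : GL (Fin n) K) : Matrix (Fin n) (Fin n) K) ↔
      (u : Matrix ι' ι' K)ᵀ * (A : Matrix ι' ι' K) * (u : Matrix ι' ι' K) = c • (A : Matrix ι' ι' K) := by
  simp only [rG_coe]
  rw [← sim_inv_iff]
  rw [Matrix.transpose_submatrix, Matrix.submatrix_mul_equiv, Matrix.submatrix_mul_equiv]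
  have : c • ((A⁻¹ : GL ι' K) : Matrix ι' ι' K).submatrix e.symm e.symm =
      (c • ((A⁻¹ : GL ι' K) : Matrix ι' ι' K)).submatrix e.symm e.symm := rfl
  rw [this]
  constructor
  · intro h
    ext i j
    have h3 := congrFun (congrFun h (e i)) (e j)
    simpa using h3
  · intro h
    rw [h]

/-- The Pfaffian relation: the determinant of a similarity of an alternating form. -/
theorem det_of_sim_alt [Fintype K] (h2 : (2 : K) ≠ 0) {m : ℕ} (hnm : n = 2 * m) (B w : GL (Fin n) K) {c : Kˣ}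
    (hB : (B : Matrix (Fin n) (Fin n) K)ᵀ = -(B : Matrix (Fin n) (Fin n) K))
    (h : (w : Matrix (Fin n) (Fin n) K)ᵀ * B * w = (c : K) • (B : Matrix (Fin n) (Fin n) K)) :
    (w : Matrix (Fin n) (Fin n) K).det = (c : K) ^ m := by
  classical
  let e : Fin m ⊕ Fin m ≃ Fin n := Fintype.equivFinOfCardEq (by simp; omega)
  set g₁ : GL (Fin n) K := rG e (jG K m)⁻¹ with hg₁
  have hs₁ : (g₁ : Matrix (Fin n) (Fin n) K)ᵀ = -(g₁ : Matrix (Fin n) (Fin n) K) :=
    rG_inv_skew e _ (by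
      rw [jG_transpose]
      simp)
  have hX := inv_skew hB
  obtain ⟨R, hR⟩ := exists_congr_alt (g₁ : Matrix (Fin n) (Fin n) K) ((B⁻¹ : GL (Fin n) K) : Matrix (Fin n) (Fin n) K)
    (skew_alt h2 _ hs₁) (skew_alt h2 _ hX) (gl_det_ne _) (gl_det_ne _)
  have hw := (Cfsg.Agent.Lib.AutPSU.GB.sim_inv_iff₂ w B B c).2 h
  set v : GL (Fin n) K := R⁻¹ * w * R with hv
  have hv1 : (v : Matrix (Fin n) (Fin n) K) * g₁ * (v : Matrix (Fin n) (Fin n) K)ᵀ = (c : K) • (g₁ : Matrix (Fin n) (Fin n) K) := by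
    set Ri := ((R⁻¹ : GL (Fin n) K) : Matrix (Fin n) (Fin n) K) with hRi
    set Rm := (R : Matrix (Fin n) (Fin n) K) with hRm
    set W := (w : Matrix (Fin n) (Fin n) K) with hW
    set X := ((B⁻¹ : GL (Fin n) K) : Matrix (Fin n) (Fin n) K) with hXd
    set G := (g₁ : Matrix (Fin n) (Fin n) K) with hG
    have hRiR : Ri * Rm = 1 := gl_im R
    have hRRi : Rm * Ri = 1 := gl_mi R
    have hRt : Rmᵀ * Riᵀ = 1 := by rw [← Matrix.transpose_mul, hRiR, Matrix.transpose_one]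
    have hvv : (v : Matrix (Fin n) (Fin n) K) = Ri * W * Rm := rfl
    rw [hvv, Matrix.transpose_mul, Matrix.transpose_mul]
    calc Ri * W * Rm * G * (Rmᵀ * (Wᵀ * Riᵀ)) = Ri * (W * (Rm * G * Rmᵀ) * Wᵀ) * Riᵀ := by
          simp only [Matrix.mul_assoc]
      _ = Ri * ((c : K) • X) * Riᵀ := by rw [hR, hw]
      _ = (c : K) • (Ri * (Rm * G * Rmᵀ) * Riᵀ) := by
          rw [hR, Matrix.mul_smul, Matrix.smul_mul]
      _ = (c : K) • ((Ri * Rm) * G * (Rmᵀ * Riᵀ)) := by simp only [Matrix.mul_assoc]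
      _ = _ := by rw [hRiR, hRt, Matrix.one_mul, Matrix.mul_one]
  have hsv : rG e ((rG e).symm v) = v := by simp
  rw [← hsv, hg₁] at hv1
  have hv2 := (sim_rG_iff e _ (jG K m) (c : K)).1 hv1
  have hv3 := det_of_sim_J ((rG e).symm v) c hv2
  have hv4 : (v : Matrix (Fin n) (Fin n) K).det = (c : K) ^ m := by
    rw [← hsv, det_rG, hv3]
  rw [← hv4, hv, Units.val_mul, Units.val_mul, Matrix.det_mul, Matrix.det_mul]
  have h5 : ((R⁻¹ : GL (Fin n) K) : Matrix (Fin n) (Fin n) K).det * (R : Matrix (Fin n) (Fin n) K).det = 1 := by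
    rw [← Matrix.det_mul, gl_im R, Matrix.det_one]
  calc _ = (((R⁻¹ : GL (Fin n) K) : Matrix (Fin n) (Fin n) K).det * (R : Matrix (Fin n) (Fin n) K).det) * (w : Matrix (Fin n) (Fin n) K).det := by
        rw [h5, one_mul]
    _ = _ := by ring

/-- Similarities with every multiplier, for an alternating form. -/
theorem exists_sim_alt [Fintype K] (h2 : (2 : K) ≠ 0) (B : GL (Fin n) K)
    (hB : (B : Matrix (Fin n) (Fin n) K)ᵀ = -(B : Matrix (Fin n) (Fin n) K)) (c : Kˣ) :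
    ∃ w : GL (Fin n) K, (w : Matrix (Fin n) (Fin n) K)ᵀ * B * w = (c : K) • (B : Matrix (Fin n) (Fin n) K) := by
  have hX := inv_skew hB
  have hXa := skew_alt h2 _ hX
  obtain ⟨R, hR⟩ := exists_congr_alt ((B⁻¹ : GL (Fin n) K) : Matrix (Fin n) (Fin n) K)
    ((c : K) • ((B⁻¹ : GL (Fin n) K) : Matrix (Fin n) (Fin n) K)) hXa (by
      intro v
      rw [Matrix.smul_mulVec, dotProduct_smul, hXa, smul_zero]) (gl_det_ne _) (by
      rw [Matrix.det_smul]
      exact mul_ne_zero (pow_ne_zero _ c.ne_zero) (gl_det_ne _))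
  exact ⟨R, (Cfsg.Agent.Lib.AutPSU.GB.sim_inv_iff₂ R B B c).1 hR⟩

/-- A reflection in a symmetric form. -/
theorem exists_refl₁ (h2 : (2 : K) ≠ 0) (hn : 1 ≤ n) (g : GL (Fin n) K) (hg : (g : Matrix (Fin n) (Fin n) K)ᵀ = g) :
    ∃ u : GL (Fin n) K, (u : Matrix (Fin n) (Fin n) K) * g * (u : Matrix (Fin n) (Fin n) K)ᵀ = g ∧
      (u : Matrix (Fin n) (Fin n) K).det = -1 := by
  set G := (g : Matrix (Fin n) (Fin n) K) with hG
  have hex : ∃ w : Fin n → K, w ⬝ᵥ (G *ᵥ w) ≠ 0 := by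
    by_contra hcon
    simp only [not_exists, not_not] at hcon
    have h0 := Cfsg.Agent.Lib.AutPSL.sym_eq_zero h2 G hg hcon
    have hne : Nonempty (Fin n) := ⟨⟨0, by omega⟩⟩
    have := gl_det_ne g
    rw [← hG, h0, Matrix.det_zero] at this
    exact this rfl
  obtain ⟨w, hw⟩ := hex
  set s := w ⬝ᵥ (G *ᵥ w) with hs
  set a : Fin n → K := (2 / s) • (G *ᵥ w) with ha
  set U : Matrix (Fin n) (Fin n) K := 1 - vecMulVec a w with hU
  have hdetU : U.det = -1 := by
    have h3 : U = 1 - (replicateCol Unit a) * (replicateRow Unit w) := by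
      rw [hU]
      congr 1
      ext i j
      simp [vecMulVec_apply, Matrix.mul_apply]
    rw [h3, Matrix.det_one_sub_mul_comm, Matrix.det_unique]
    have h4 : ((1 : Matrix Unit Unit K) - replicateRow Unit w * replicateCol Unit a) default default = 1 - w ⬝ᵥ a := by
      simp [Matrix.mul_apply, dotProduct]
    rw [h4, ha, dotProduct_smul, ← hs, smul_eq_mul]
    field_simp
    ring
  have hdet0 : U.det ≠ 0 := by
    rw [hdetU]
    exact neg_ne_zero.mpr one_ne_zero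
  refine ⟨Matrix.GeneralLinearGroup.mkOfDetNeZero U hdet0, ?_, hdetU⟩
  change U * G * Uᵀ = G
  have hUT : Uᵀ = 1 - vecMulVec w a := by
    rw [hU, Matrix.transpose_sub, Matrix.transpose_one]
    congr 1
    ext i j
    simp [vecMulVec_apply, mul_comm]
  have hGw : vecMulVec a w * G = (2 / s) • vecMulVec (G *ᵥ w) (G *ᵥ w) := by
    rw [Matrix.vecMulVec_mul, ha]
    have h5 : w ᵥ* G = G *ᵥ w := by
      conv_lhs => rw [← hg]
      rw [Matrix.vecMul_transpose]
    rw [h5]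
    ext i j
    simp [vecMulVec_apply, mul_assoc]
  have hGw2 : G * vecMulVec w a = (2 / s) • vecMulVec (G *ᵥ w) (G *ᵥ w) := by
    rw [Matrix.mul_vecMulVec, ha]
    ext i j
    simp [vecMulVec_apply]
    ring
  have hkey : vecMulVec a w * G * vecMulVec w a = (4 / s) • vecMulVec (G *ᵥ w) (G *ᵥ w) := by
    rw [hGw, Matrix.smul_mul, Matrix.vecMulVec_mul_vecMulVec, ha]
    have h6 : (G *ᵥ w) ⬝ᵥ w = s := by
      rw [hs, dotProduct_comm]
    ext i j
    simp [vecMulVec_apply, h6, h6]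
    field_simp
    ring
  rw [hUT, Matrix.sub_mul, Matrix.one_mul, Matrix.mul_sub, Matrix.mul_one, Matrix.sub_mul, hkey, hGw, hGw2]
  have h7 : (4 / s) • vecMulVec (G *ᵥ w) (G *ᵥ w) = (2 / s) • vecMulVec (G *ᵥ w) (G *ᵥ w) + (2 / s) • vecMulVec (G *ᵥ w) (G *ᵥ w) := by
    rw [← add_smul]
    congr 1
    ring
  rw [h7]
  abel

/-- Similarities of a symmetric form with every multiplier and determinant of either sign. -/
theorem exists_sim_sym [Fintype K] (h2 : (2 : K) ≠ 0) (hn : 1 ≤ n) {m : ℕ} (hnm : n = 2 * m) (B : GL (Fin n) K)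
    (hB : (B : Matrix (Fin n) (Fin n) K)ᵀ = (B : Matrix (Fin n) (Fin n) K)) (c : Kˣ) {s : K} (hs : s = 1 ∨ s = -1) :
    ∃ w : GL (Fin n) K, (w : Matrix (Fin n) (Fin n) K)ᵀ * B * w = (c : K) • (B : Matrix (Fin n) (Fin n) K) ∧
      (w : Matrix (Fin n) (Fin n) K).det = s * (c : K) ^ m := by
  have hX := inv_symm hB
  set X := ((B⁻¹ : GL (Fin n) K) : Matrix (Fin n) (Fin n) K) with hXd
  have hdX : X.det ≠ 0 := gl_det_ne _
  have hc0 : (c : K) ≠ 0 := c.ne_zero
  obtain ⟨R, hR⟩ := exists_congr_sym h2 X ((c : K) • X) hX (by rw [Matrix.transpose_smul, hX]) hdX (by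
      rw [Matrix.det_smul]
      exact mul_ne_zero (pow_ne_zero _ hc0) hdX) (by
      rw [Matrix.det_smul, Fintype.card_fin]
      refine ⟨(c : K) ^ m * X.det, ?_⟩
      have h5 : (c : K) ^ n = ((c : K) ^ m) ^ 2 := by
        rw [hnm]
        ring
      rw [h5]
      ring)
  have hR1 := (Cfsg.Agent.Lib.AutPSU.GB.sim_inv_iff₂ R B B c).1 hR
  obtain ⟨r₀, hr₀, hr₀d⟩ := exists_refl₁ h2 hn B⁻¹ hX
  have hr₁ := (Cfsg.Agent.Lib.AutPSU.GB.sim_inv_iff₂ r₀ B B 1).1 (by rw [hr₀, Units.val_one, one_smul])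
  rw [Units.val_one, one_smul] at hr₁
  have hd2 := det_sq_of_sim hR1
  have hss : s * s = 1 := sign_sq hs
  have h3 : ((R : Matrix (Fin n) (Fin n) K).det - (c : K) ^ m) * ((R : Matrix (Fin n) (Fin n) K).det + (c : K) ^ m) = 0 := by
    have h4 : (c : K) ^ n = ((c : K) ^ m) ^ 2 := by
      rw [hnm]
      ring
    linear_combination hd2 + h4
  have hcases : ∃ t : K, (t = 1 ∨ t = -1) ∧ (R : Matrix (Fin n) (Fin n) K).det = t * (c : K) ^ m := by
    rcases mul_eq_zero.1 h3 with h4 | h4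
    · exact ⟨1, Or.inl rfl, by rw [one_mul]; exact sub_eq_zero.1 h4⟩
    · exact ⟨-1, Or.inr rfl, by linear_combination h4⟩
  obtain ⟨t, ht, hRd⟩ := hcases
  have hprod : ((R * r₀ : GL (Fin n) K) : Matrix (Fin n) (Fin n) K)ᵀ * B * ((R * r₀ : GL (Fin n) K) : Matrix (Fin n) (Fin n) K) = (c : K) • (B : Matrix (Fin n) (Fin n) K) := by
    rw [Units.val_mul, Matrix.transpose_mul]
    calc (r₀ : Matrix (Fin n) (Fin n) K)ᵀ * (R : Matrix (Fin n) (Fin n) K)ᵀ * B * ((R : Matrix (Fin n) (Fin n) K) * r₀)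
        = (r₀ : Matrix (Fin n) (Fin n) K)ᵀ * ((R : Matrix (Fin n) (Fin n) K)ᵀ * B * R) * r₀ := by simp only [Matrix.mul_assoc]
      _ = (c : K) • ((r₀ : Matrix (Fin n) (Fin n) K)ᵀ * B * r₀) := by
          rw [hR1, Matrix.mul_smul, Matrix.smul_mul]
      _ = _ := by rw [hr₁]
  by_cases hst : s = t
  · exact ⟨R, hR1, by rw [hRd, hst]⟩
  · refine ⟨R * r₀, hprod, ?_⟩
    rw [Units.val_mul, Matrix.det_mul, hRd, hr₀d]
    have hst' : s = -t := by
      rcases hs with rfl | rfl <;> rcases ht with rfl | rfl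
      · exact absurd rfl hst
      · simp
      · simp
      · exact absurd rfl hst
    rw [hst']
    ring

end Forms

/-! ### The alternating case -/

section WithP

variable {p : ℕ} [hp : Fact p.Prime] [hch : CharP F p]
include hp hch

theorem countU_alt (hF : Fintype.card F = q ^ 2) (hn : 3 ≤ n) (hι : Emb hF ι) {g : GL (Fin n) F} (hg : g ∈ GU n F q)
    {B : GL (Fin n) F₀} (hr : IsRep hF ι g B) {m : ℕ} (hnm : n = 2 * m) (h2 : (2 : F₀) ≠ 0)
    (hB : (B : Matrix (Fin n) (Fin n) F₀)ᵀ = -(B : Matrix (Fin n) (Fin n) F₀)) :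
    splitClassCount (inndiagPSU n F q) (Inn (PSU n F q)) (semiAut hg (tauE hF)) = Nat.gcd m (q + 1) := by
  have hn1 : 1 ≤ n := by omega
  rw [count_of_T_U (p := p) hF hn _ ((powMonoidHom m : (detGU n F q).range →* (detGU n F q).range).range)]
  · rw [IsCyclic.card_powMonoidHom_range, detGU_range_card hF hn1, Nat.div_div_self (Nat.gcd_dvd_left _ _) (by omega)]
    rw [Nat.gcd_eq_left, Nat.gcd_comm]
    rw [hnm]
    exact Dvd.dvd.mul_left (Nat.gcd_dvd_right _ _) 2
  · rintro t ⟨a, rfl⟩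
    have ha1 : ((a : Fˣ) : F) * tauE hF ((a : Fˣ) : F) = 1 := (mem_detGU_range hF hn1 _).1 a.2
    obtain ⟨d, hd0, hd⟩ := exists_hilbert hF ha1
    obtain ⟨c, hc⟩ := exists_multiplier hι hd0
    obtain ⟨w, hw⟩ := exists_sim_alt h2 B hB c
    have hwd := det_of_sim_alt h2 hnm B w hB hw
    obtain ⟨u, hu, hud⟩ := data_of_form (p := p) hF hn hι hg hr hw (Units.mk0 d hd0) hc
    refine ⟨u, hu, dd_eq _ _ ?_⟩
    change _ = (((a ^ m : (detGU n F q).range) : Fˣ) : F)
    have h5 : d ^ n = (d ^ m) ^ 2 := by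
      rw [hnm]
      ring
    rw [U_pow_val, hud, hwd, Units.val_mk0, map_pow, ← key_alg hd hc, h5]
    ring
  · intro u hu
    obtain ⟨w, c, x, hwc, hx, hdet⟩ := form_of_data (p := p) hF hn hι hg hr u hu
    have hwd := det_of_sim_alt h2 hnm B w hB hwc
    have hnk := norm_key hι hx
    refine ⟨1, (mkU hF hn1 _ hnk) ^ m, ⟨_, rfl⟩, ?_⟩
    rw [one_pow, one_mul]
    apply dd_eq
    have h5 : (x : F) ^ n = ((x : F) ^ m) ^ 2 := by
      rw [hnm]
      ring
    rw [U_pow_val, mkU_val, hdet, hwd, map_pow, h5]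
    ring

/-! ### The symmetric case -/

theorem countU_sym (hF : Fintype.card F = q ^ 2) (hn : 3 ≤ n) (hι : Emb hF ι) {g : GL (Fin n) F} (hg : g ∈ GU n F q)
    {B : GL (Fin n) F₀} (hr : IsRep hF ι g B) {m : ℕ} (hnm : n = 2 * m) (h2 : (2 : F₀) ≠ 0) (hodd : Odd q)
    (hB : (B : Matrix (Fin n) (Fin n) F₀)ᵀ = (B : Matrix (Fin n) (Fin n) F₀)) :
    splitClassCount (inndiagPSU n F q) (Inn (PSU n F q)) (semiAut hg (tauE hF)) = Nat.gcd n (q + 1) / 2 := by
  have hn1 : 1 ≤ n := by omega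
  obtain ⟨r', hr'⟩ := hodd
  set r := r' + 1 with hrd
  have hq1 : q + 1 = 2 * r := by omega
  have hcardU : Nat.card (detGU n F q).range = 2 * r := by
    rw [detGU_range_card hF hn1, hq1]
  have hr0 : 0 < r := by omega
  set d := Nat.gcd m r with hd
  have hdm : d ∣ m := Nat.gcd_dvd_left _ _
  have hdr : d ∣ r := Nat.gcd_dvd_right _ _
  have hd2r : d ∣ Nat.card (detGU n F q).range := by
    rw [hcardU]
    exact Dvd.dvd.mul_left hdr 2
  have htarget : Nat.gcd n (q + 1) / 2 = d := by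
    rw [hq1, hnm, Nat.gcd_mul_left, Nat.mul_div_cancel_left _ (by norm_num)]
  rw [htarget, count_of_T_U (p := p) hF hn _ ((powMonoidHom d : (detGU n F q).range →* (detGU n F q).range).range)]
  · rw [IsCyclic.card_powMonoidHom_range, Nat.gcd_eq_right hd2r, detGU_range_card hF hn1,
      Nat.div_div_self (by rw [← detGU_range_card hF hn1]; exact hd2r) (by omega)]
    apply Nat.gcd_eq_left
    rw [hnm]
    exact Dvd.dvd.mul_left hdm 2
  · rintro t ⟨y, rfl⟩
    -- Bezout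
    have hbez : (d : ℤ) = m * Nat.gcdA m r + r * Nat.gcdB m r := Nat.gcd_eq_gcd_ab m r
    have hxr : ∀ x : (detGU n F q).range, (x ^ r) ^ 2 = 1 := by
      intro x
      rw [← pow_mul, mul_comm, ← hcardU]
      exact pow_card_eq_one'
    have hsplit : y ^ d = (y ^ Nat.gcdA m r) ^ m * (y ^ r) ^ Nat.gcdB m r := by
      rw [← zpow_natCast y d, hbez, _root_.zpow_add, _root_.zpow_mul, _root_.zpow_mul]
      have hcm : (y ^ m) ^ Nat.gcdA m r = (y ^ Nat.gcdA m r) ^ m := by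
        rw [← zpow_natCast y m, ← zpow_natCast (y ^ Nat.gcdA m r) m, _root_.zpow_comm]
      rw [zpow_natCast, zpow_natCast, hcm]
    set s := (y ^ r) ^ Nat.gcdB m r with hs
    have hs2 : ((s : Fˣ) : F) * ((s : Fˣ) : F) = 1 := by
      have h3 : s ^ 2 = 1 := by
        rw [hs, ← zpow_natCast, ← _root_.zpow_mul, mul_comm, _root_.zpow_mul, zpow_natCast, hxr, _root_.one_zpow]
      have h4 := congrArg (fun z : (detGU n F q).range => ((z : Fˣ) : F)) h3
      simp only [U_pow_val] at h4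
      simpa [pow_two] using h4
    set a := y ^ Nat.gcdA m r with ha
    have ha1 : ((a : Fˣ) : F) * tauE hF ((a : Fˣ) : F) = 1 := (mem_detGU_range hF hn1 _).1 a.2
    obtain ⟨δ, hδ0, hδ⟩ := exists_hilbert hF ha1
    obtain ⟨c, hc⟩ := exists_multiplier hι hδ0
    -- the sign in `F₀`
    obtain ⟨s₀, hs₀, hs₀s⟩ : ∃ s₀ : F₀, (s₀ = 1 ∨ s₀ = -1) ∧ ι s₀ = ((s : Fˣ) : F) := by
      rcases mul_self_eq_one_iff.1 hs2 with h3 | h3
      · exact ⟨1, Or.inl rfl, by rw [h3, map_one]⟩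
      · exact ⟨-1, Or.inr rfl, by rw [h3, map_neg, map_one]⟩
    obtain ⟨w, hw, hwd⟩ := exists_sim_sym h2 hn1 hnm B hB c hs₀
    obtain ⟨u, hu, hud⟩ := data_of_form (p := p) hF hn hι hg hr hw (Units.mk0 δ hδ0) hc
    refine ⟨u, hu, dd_eq _ _ ?_⟩
    change _ = (((y ^ d : (detGU n F q).range) : Fˣ) : F)
    have h5 : δ ^ n = (δ ^ m) ^ 2 := by
      rw [hnm]
      ring
    rw [hsplit, hud, hwd, Units.val_mk0, map_mul, map_pow, hs₀s, h5]
    have h6 : (((a ^ m * s : (detGU n F q).range) : Fˣ) : F) = ((a : Fˣ) : F) ^ m * ((s : Fˣ) : F) := by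
      rw [Subgroup.coe_mul, Units.val_mul, U_pow_val]
    rw [h6, ← key_alg hδ hc]
    ring
  · intro u hu
    refine ⟨1, (detGU n F q).rangeRestrict u, ?_, by rw [one_pow, one_mul]⟩
    obtain ⟨w, c, x, hwc, hx, hdet⟩ := form_of_data (p := p) hF hn hι hg hr u hu
    have hd2 := det_sq_of_sim hwc
    have hnk := norm_key hι hx
    set a : (detGU n F q).range := mkU hF hn1 _ hnk with ha
    have hav : ((a : Fˣ) : F) = (x : F) * x * ι (c : F₀) := rfl
    have h5 : (x : F) ^ n = ((x : F) ^ m) ^ 2 := by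
      rw [hnm]
      ring
    have hsq : ((w : Matrix (Fin n) (Fin n) F₀).det - (c : F₀) ^ m) * ((w : Matrix (Fin n) (Fin n) F₀).det + (c : F₀) ^ m) = 0 := by
      have h4 : (c : F₀) ^ n = ((c : F₀) ^ m) ^ 2 := by
        rw [hnm]
        ring
      linear_combination hd2 + h4
    obtain ⟨k, hk⟩ := hdr
    obtain ⟨l, hl⟩ := hdm
    -- the generator
    obtain ⟨ζ, hζ⟩ := IsCyclic.exists_generator (α := (detGU n F q).range)
    have horder : orderOf ζ = 2 * r := by
      rw [← hcardU]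
      exact orderOf_eq_card_of_forall_mem_zpowers hζ
    have hζr : (((ζ ^ r : (detGU n F q).range) : Fˣ) : F) = -1 := by
      have h3 : (ζ ^ r) ^ 2 = 1 := by
        rw [← pow_mul, mul_comm, ← horder]
        exact pow_orderOf_eq_one ζ
      have h4 : ζ ^ r ≠ 1 := by
        intro h5
        have h6 := orderOf_dvd_of_pow_eq_one h5
        rw [horder] at h6
        have := Nat.le_of_dvd hr0 h6
        omega
      have h5 : (((ζ ^ r : (detGU n F q).range) : Fˣ) : F) * (((ζ ^ r : (detGU n F q).range) : Fˣ) : F) = 1 := by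
        have h6 := congrArg (fun z : (detGU n F q).range => ((z : Fˣ) : F)) h3
        simp only [U_pow_val] at h6 ⊢
        simpa [pow_two, ← pow_mul] using h6
      rcases mul_self_eq_one_iff.mp h5 with h6 | h6
      · exfalso
        apply h4
        exact Subtype.ext (Units.ext h6)
      · exact h6
    rcases mul_eq_zero.mp hsq with h3 | h3
    · refine ⟨a ^ l, ?_⟩
      symm
      apply dd_eq
      change _ = (((a ^ l) ^ d : (detGU n F q).range) : Fˣ).val
      rw [U_pow_val, U_pow_val, hdet, sub_eq_zero.mp h3, ← pow_mul, hav, map_pow, h5]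
      have hm : l * d = m := by rw [hl]; ring
      rw [hm]
      ring
    · refine ⟨a ^ l * ζ ^ k, ?_⟩
      symm
      apply dd_eq
      change _ = (((a ^ l * ζ ^ k) ^ d : (detGU n F q).range) : Fˣ).val
      have hW : (w : Matrix (Fin n) (Fin n) F₀).det = -(c : F₀) ^ m := eq_neg_of_add_eq_zero_left h3
      have hm : l * d = m := by rw [hl]; ring
      have hk' : k * d = r := by rw [hk]; ring
      rw [mul_pow, ← pow_mul, ← pow_mul, hm, hk', Subgroup.coe_mul, Units.val_mul, hζr, U_pow_val, hav, hdet, hW, map_neg, map_pow, h5]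
      ring

end WithP

end Cfsg.Agent.Lib.AutPSU.GB
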